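import Mathlib
import Cfsg.Agent.Grp.CardProduct

/-! Small commutator spaces of `p`-elements (`p ≥ 5`) on an elementary abelian 2-group `W`
(module lemmas for S1852). -/

set_option autoImplicit false
set_option linter.unusedSectionVars false

namespace Cfsg.Agent.QT.Xf

open Subgroup

variable {W : Type*} [CommGroup W] [Finite W]

/-- `w ↦ x w / w`. -/
def dl (x : MulAut W) : W →* W := x.toMonoidHom / MonoidHom.id W

/-- Fixed points of `x`. -/
def fx (x : MulAut W) : Subgroup W := (dl x).ker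

/-- The commutator space `[W, x]`. -/
def cm (x : MulAut W) : Subgroup W := (dl x).range

/-- `U` is `x`-invariant. -/
def Iv (x : MulAut W) (U : Subgroup W) : Prop := ∀ u ∈ U, x u ∈ U

theorem dl_apply (x : MulAut W) (w : W) : dl x w = x w / w := rfl

theorem mem_fx {x : MulAut W} {w : W} : w ∈ fx x ↔ x w = w := by
  rw [fx, MonoidHom.mem_ker, dl_apply, div_eq_one]

theorem card_cm (x : MulAut W) : Nat.card (cm x) = (fx x).index := (index_ker _).symm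

theorem eq_one_of_fx {x : MulAut W} (h : ∀ w, w ∈ fx x) : x = 1 :=
  MulEquiv.ext fun w => mem_fx.1 (h w)

theorem fx_pow {x : MulAut W} {w : W} (h : w ∈ fx x) (k : ℕ) : w ∈ fx (x ^ k) := by
  rw [mem_fx] at *
  induction k with
  | zero => rfl
  | succ k ih => rw [pow_succ, MulAut.mul_apply, h, ih]

theorem fx_inv {x : MulAut W} {w : W} (h : w ∈ fx x) : w ∈ fx x⁻¹ := by
  rw [mem_fx] at *
  conv_lhs => rw [← h]
  exact MulAut.inv_apply_self W x w

theorem fx_mul {x y : MulAut W} {w : W} (h : w ∈ fx x) (h' : w ∈ fx y) : w ∈ fx (x * y) := by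
  rw [mem_fx] at *
  rw [MulAut.mul_apply, h', h]

theorem fx_zpow {x : MulAut W} {w : W} (h : w ∈ fx x) (k : ℤ) : w ∈ fx (x ^ k) := by
  rcases k with k | k
  · simpa using fx_pow h k
  · rw [zpow_negSucc]; exact fx_inv (fx_pow h _)

theorem fx_sq {x : MulAut W} {n : ℕ} (hn : Odd n) (h1 : x ^ n = 1) {w : W} (h : w ∈ fx (x ^ 2)) :
    w ∈ fx x := by
  obtain ⟨k, rfl⟩ := hn
  have := fx_pow h (k + 1)
  rwa [← pow_mul, show 2 * (k + 1) = (2 * k + 1) + 1 by ring, pow_succ, h1, one_mul] at this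

theorem Iv.inf {x : MulAut W} {U V : Subgroup W} (h : Iv x U) (h' : Iv x V) : Iv x (U ⊓ V) :=
  fun u hu => ⟨h u hu.1, h' u hu.2⟩

theorem Iv.pow {x : MulAut W} {U : Subgroup W} (h : Iv x U) (k : ℕ) : Iv (x ^ k) U := by
  induction k with
  | zero => exact fun u hu => hu
  | succ k ih => exact fun u hu => by rw [pow_succ, MulAut.mul_apply]; exact ih _ (h u hu)

theorem iv_fx {x y : MulAut W} (h : Commute x y) : Iv y (fx x) := fun u hu => by
  rw [mem_fx] at *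
  rw [← MulAut.mul_apply, h.eq, MulAut.mul_apply, hu]

theorem iv_cm {x y : MulAut W} (h : Commute x y) : Iv y (cm x) := by
  rintro _ ⟨w, rfl⟩
  refine ⟨y w, ?_⟩
  rw [dl_apply, dl_apply, map_div, ← MulAut.mul_apply, h.eq, MulAut.mul_apply]

theorem iv_cm_inv {x a : MulAut W} (h : a * x * a⁻¹ = x⁻¹) : Iv a (cm x) := by
  rintro _ ⟨w, rfl⟩
  have e : a * x = x⁻¹ * a := by rw [← h]; group
  refine ⟨(x⁻¹ (a w))⁻¹, ?_⟩
  rw [dl_apply, dl_apply, map_div, ← MulAut.mul_apply W a x, e, MulAut.mul_apply, map_inv,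
    MulAut.apply_inv_self, inv_div_inv]

theorem Iv.dl {x : MulAut W} {U : Subgroup W} (h : Iv x U) {u : W} (hu : u ∈ U) : dl x u ∈ U :=
  div_mem (h u hu) hu

theorem disj (hW : ∀ w : W, w ^ 2 = 1) {x : MulAut W} {n : ℕ} (hn : Odd n) (h1 : x ^ n = 1) :
    cm x ⊓ fx x = ⊥ := by
  refine eq_bot_iff.2 fun u ⟨⟨w, hw⟩, hu⟩ => ?_
  replace hu : x u = u := mem_fx.1 hu
  have e : x w = u * w := by rw [← hw, dl_apply, div_mul_cancel]
  have : ∀ k : ℕ, (x ^ k) w = u ^ k * w := fun k => by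
    induction k with
    | zero => simp
    | succ k ih => rw [pow_succ', MulAut.mul_apply, ih, map_mul, map_pow, hu, e, pow_succ,
        mul_assoc]
  have h2 := this n
  obtain ⟨k, rfl⟩ := hn
  rw [h1, MulAut.one_apply, pow_succ, pow_mul, hW, one_pow, one_mul] at h2
  exact mem_bot.2 (by simpa using h2)

theorem modEq {p k : ℕ} [Fact p.Prime] {x : MulAut W} (h1 : x ^ p ^ k = 1) {U : Subgroup W}
    (h : Iv x U) : Nat.card U ≡ Nat.card (U ⊓ fx x : Subgroup W) [MOD p] := by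
  classical
  have := Fintype.ofFinite U
  let f : Function.End U := fun u => ⟨x u, h u u.2⟩
  have e : ∀ (j : ℕ) (u : U), ((f ^ j) u : W) = (x ^ j) u := fun j => by
    induction j with
    | zero => intro u; rfl
    | succ j ih => intro u; rw [pow_succ, pow_succ, MulAut.mul_apply]; exact ih (f u)
  have hf : f ^ p ^ k = 1 := funext fun u => Subtype.ext (by rw [e, h1]; rfl)
  have := Equiv.Perm.card_fixedPoints_modEq hf
  rw [← Nat.card_eq_fintype_card, ← Nat.card_eq_fintype_card] at this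
  convert this using 1
  refine Nat.card_congr ⟨fun u => ⟨⟨u, u.2.1⟩, Subtype.ext (mem_fx.1 u.2.2)⟩,
    fun u => ⟨u.1, u.1.2, mem_fx.2 (congrArg Subtype.val u.2)⟩, fun _ => rfl, fun _ => rfl⟩

theorem card_inf_mul (U V : Subgroup W) :
    Nat.card (U ⊓ V : Subgroup W) * V.relIndex U = Nat.card U := by
  rw [← inf_relIndex_left, ← relIndex_bot_left, ← relIndex_bot_left,
    relIndex_mul_relIndex _ _ _ bot_le inf_le_left]

theorem rel_le (hW : ∀ w : W, w ^ 2 = 1) {a : MulAut W} (ha : a ^ 2 = 1) {U : Subgroup W}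
    (h : Iv a U) : (fx a).relIndex U ≤ Nat.card (U ⊓ fx a : Subgroup W) := by
  rw [fx, relIndex_ker]
  refine card_le_of_le ?_
  rintro _ ⟨u, hu, rfl⟩
  refine ⟨h.dl hu, mem_fx.2 ?_⟩
  rw [dl_apply, map_div, ← MulAut.mul_apply, ← pow_two, ha, MulAut.one_apply, div_eq_div_iff_mul_eq_mul,
    ← pow_two, ← pow_two, hW, hW]

theorem free (hW : ∀ w : W, w ^ 2 = 1) {x a : MulAut W} {n : ℕ} (hn : Odd n) (h1 : x ^ n = 1)
    (ha : a ^ 2 = 1) (hi : a * x * a⁻¹ = x⁻¹) {U : Subgroup W} (hx : Iv x U) (h : Iv a U)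
    (h0 : U ⊓ fx x = ⊥) : (fx a).relIndex U = Nat.card (U ⊓ fx a : Subgroup W) := by
  refine le_antisymm (rel_le hW ha h) ?_
  have e : a * x = x⁻¹ * a := by rw [← hi]; group
  have h2 : (U ⊓ fx a) ⊓ (U ⊓ fx a).map x.toMonoidHom = ⊥ := by
    refine eq_bot_iff.2 ?_
    rintro _ ⟨h3, w, h4, rfl⟩
    have h5 : a (x w) = x w := mem_fx.1 h3.2
    rw [← MulAut.mul_apply, e, MulAut.mul_apply, mem_fx.1 h4.2] at h5
    have h6 : w ∈ fx (x ^ 2) := by
      rw [mem_fx, pow_two, MulAut.mul_apply, ← h5, MulAut.apply_inv_self]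
    have h7 : w ∈ U ⊓ fx x := ⟨h4.1, fx_sq hn h1 h6⟩
    rw [h0, mem_bot] at h7
    simp [h7]
  have h3 := Grp.card_mul_card_le_of_le (H := U ⊓ fx a) (K := (U ⊓ fx a).map x.toMonoidHom) (L := U)
    inf_le_left (by rintro _ ⟨w, h4, rfl⟩; exact hx w h4.1)
  rw [h2, card_bot, one_mul, card_map_of_injective x.injective, ← card_inf_mul U (fx a)] at h3
  exact Nat.le_of_mul_le_mul_left h3 Nat.card_pos

theorem card_two (hW : ∀ w : W, w ^ 2 = 1) (U : Subgroup W) : ∃ k, Nat.card U = 2 ^ k := by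
  have : Fact (Nat.Prime 2) := ⟨Nat.prime_two⟩
  have : IsPGroup 2 W := fun w => ⟨1, by rw [pow_one, hW]⟩
  exact IsPGroup.iff_card.1 (this.to_subgroup U)

theorem odd_pp {p : ℕ} [hp : Fact p.Prime] (h5 : 5 ≤ p) (k : ℕ) : Odd (p ^ k) :=
  (hp.out.odd_of_ne_two (by omega)).pow

theorem cm_ne_bot {x : MulAut W} (h : x ≠ 1) : cm x ≠ ⊥ := fun e =>
  h (eq_one_of_fx fun w => by
    have : dl x w ∈ cm x := ⟨w, rfl⟩
    rwa [e] at this)

theorem two_pow_ge {p j : ℕ} (hp : p.Prime) (h5 : 5 ≤ p) (hj : j ≠ 0) (h : 2 ^ j ≡ 1 [MOD p]) :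
    3 ≤ j ∧ (j = 4 → p = 5) ∧ (p = 5 → 4 ≤ j) := by
  have h1 : p ∣ 2 ^ j - 1 := (Nat.modEq_iff_dvd' Nat.one_le_two_pow).1 h.symm
  refine ⟨?_, ?_, ?_⟩
  · by_contra! k
    interval_cases j
    · exact hj rfl
    all_goals (have := Nat.le_of_dvd (by norm_num) h1; omega)
  · rintro rfl
    have := Nat.le_of_dvd (by norm_num) h1
    have h2 : p ∣ 3 * 5 := h1
    rcases (Nat.Prime.dvd_mul hp).1 h2 with e | e <;> (have := Nat.le_of_dvd (by norm_num) e; omega)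
  · rintro rfl
    by_contra! k
    interval_cases j <;> first | exact hj rfl | (revert h1; norm_num)

/-- A real `p`-element has `|[W,x]| = s²` with `s ≥ 4`, and `p = 5` if `s = 4`. -/
theorem real (hW : ∀ w : W, w ^ 2 = 1) {p k : ℕ} [hp : Fact p.Prime] (h5 : 5 ≤ p) {x a : MulAut W}
    (h1 : x ^ p ^ k = 1) (hx : x ≠ 1) (ha : a ^ 2 = 1) (hi : a * x * a⁻¹ = x⁻¹) :
    Nat.card (cm x) = (fx a).relIndex (cm x) ^ 2 ∧ 4 ≤ (fx a).relIndex (cm x) ∧
      ((fx a).relIndex (cm x) ≤ 4 → p = 5) := by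
  have h0 := disj hW (odd_pp h5 k) h1
  have e := free hW (odd_pp h5 k) h1 ha hi (iv_cm rfl) (iv_cm_inv hi) h0
  have e1 : Nat.card (cm x) = (fx a).relIndex (cm x) ^ 2 := by
    rw [← card_inf_mul (cm x) (fx a), ← e, pow_two]
  obtain ⟨j, hj⟩ := card_two hW (cm x ⊓ fx a)
  have e2 := modEq h1 (iv_cm (x := x) rfl)
  rw [h0, card_bot, e1, e, hj, ← pow_mul] at e2
  have hj0 : j * 2 ≠ 0 := by
    intro h
    rw [e, hj, ← pow_mul, h, pow_zero, card_eq_one] at e1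
    exact cm_ne_bot hx e1
  obtain ⟨t1, t2, -⟩ := two_pow_ge hp.out h5 hj0 e2
  refine ⟨e1, ?_, fun h => t2 ?_⟩
  · rw [e, hj]; exact Nat.pow_le_pow_right two_pos (show 2 ≤ j by omega)
  · rw [e, hj] at h
    have : j ≤ 2 := (Nat.pow_le_pow_iff_right one_lt_two).1 h
    omega

theorem small (hW : ∀ w : W, w ^ 2 = 1) {p k : ℕ} [hp : Fact p.Prime] (h5 : 5 ≤ p) {x a : MulAut W}
    (h1 : x ^ p ^ k = 1) (hx : x ≠ 1) (ha : a ^ 2 = 1) (hi : a * x * a⁻¹ = x⁻¹)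
    (h : (fx a).relIndex (cm x) ≤ 4) : p = 5 ∧ (fx x).index ≤ 16 := by
  obtain ⟨t1, -, t3⟩ := real hW h5 h1 hx ha hi
  exact ⟨t3 h, by rw [← card_cm, t1]; nlinarith⟩

theorem four_le (hW : ∀ w : W, w ^ 2 = 1) {p k l : ℕ} [hp : Fact p.Prime] (h5 : 5 ≤ p)
    {x y a b : MulAut W} (h1 : x ^ p ^ k = 1) (h2 : y ^ p ^ l = 1) (ha : a ^ 2 = 1) (hb : b ^ 2 = 1)
    (hxy : Commute x y) (hab : Commute a b) (hax : a * x * a⁻¹ = x⁻¹) (hby : b * y * b⁻¹ = y⁻¹)
    (hbx : Commute x b) (h : (fx a ⊓ fx b).index ≤ 16) : cm x ≤ fx b ⊓ fx y := by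
  have h0 := disj hW (odd_pp h5 k) h1
  have hU : cm x ≤ fx b := by
    by_contra hc
    have i1 : Iv x (cm x ⊓ fx b) := (iv_cm rfl).inf (iv_fx hbx.symm)
    have h0' : cm x ⊓ fx b ⊓ fx x = ⊥ :=
      eq_bot_iff.2 ((inf_le_inf_right _ inf_le_left).trans h0.le)
    have e := free hW (odd_pp h5 k) h1 ha hax i1 ((iv_cm_inv hax).inf (iv_fx hab.symm)) h0'
    have m1 := modEq h1 (iv_cm (x := x) rfl)
    have m2 := modEq h1 i1
    rw [h0, card_bot, ← card_inf_mul (cm x) (fx b)] at m1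
    rw [h0', card_bot] at m2
    have m3 : (fx b).relIndex (cm x) ≡ 1 [MOD p] := by
      have := (m2.mul_right ((fx b).relIndex (cm x))).symm.trans m1
      rwa [one_mul] at this
    obtain ⟨j, hj⟩ : ∃ j, (fx b).relIndex (cm x) = 2 ^ j := by
      rw [fx, relIndex_ker]; exact card_two hW _
    have hj0 : j ≠ 0 := by
      rintro rfl
      exact hc (relIndex_eq_one.1 hj)
    rw [hj] at m3
    have s8 : 8 ≤ (fx b).relIndex (cm x) := by
      rw [hj]; exact Nat.pow_le_pow_right two_pos (two_pow_ge hp.out h5 hj0 m3).1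
    have s1 := rel_le hW hb (iv_cm hbx)
    have s2 := card_inf_mul (cm x ⊓ fx b) (fx a)
    have s3 : (fx a ⊓ fx b).relIndex (cm x) ≤ 16 :=
      (relIndex_le_of_le_right le_top index_ne_zero_of_finite).trans (by rwa [relIndex_top_right])
    rw [← relIndex_inf_mul_relIndex, inf_comm (fx b)] at s3
    rw [← e] at s2
    generalize (fx a).relIndex (cm x ⊓ fx b) = t at *
    nlinarith
  refine le_inf hU fun u hu => fx_sq (odd_pp h5 l) h2 ?_
  have e : b * y = y⁻¹ * b := by rw [← hby]; group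
  have h3 : b (y u) = y u := mem_fx.1 (hU (iv_cm hxy u hu))
  rw [← MulAut.mul_apply, e, MulAut.mul_apply, mem_fx.1 (hU hu)] at h3
  rw [mem_fx, pow_two, MulAut.mul_apply, ← h3, MulAut.apply_inv_self]

theorem four (hW : ∀ w : W, w ^ 2 = 1) {p k l : ℕ} [hp : Fact p.Prime] (h5 : 5 ≤ p)
    {x y a b : MulAut W} (h1 : x ^ p ^ k = 1) (h2 : y ^ p ^ l = 1) (hx : x ≠ 1) (hy : y ≠ 1)
    (ha : a ^ 2 = 1) (hb : b ^ 2 = 1)
    (hxy : Commute x y) (hab : Commute a b) (hax : a * x * a⁻¹ = x⁻¹) (hby : b * y * b⁻¹ = y⁻¹)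
    (hbx : Commute x b) (hay : Commute y a) (h : (fx a ⊓ fx b).index ≤ 16) :
    p = 5 ∧ (fx x).index ≤ 16 := by
  have u1 := four_le hW h5 h1 h2 ha hb hxy hab hax hby hbx h
  have u2 := four_le hW h5 h2 h1 hb ha hxy.symm hab.symm hby hax hay (by rwa [inf_comm])
  refine small hW h5 h1 hx ha hax ?_
  obtain ⟨-, t2, -⟩ := real hW h5 h2 hy hb hby
  have h0 := disj hW (odd_pp h5 k) h1
  have s1 : (fx a).relIndex (cm x) ≤ (fx a).index :=
    (relIndex_le_of_le_right le_top index_ne_zero_of_finite).trans (by rw [relIndex_top_right])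
  have s2 : (fx b).relIndex (cm y) ≤ (fx b).relIndex (fx a) :=
    relIndex_le_of_le_right (u2.trans inf_le_left) index_ne_zero_of_finite
  have s3 := relIndex_mul_index (H := fx a ⊓ fx b) (K := fx a) inf_le_left
  rw [inf_relIndex_left] at s3
  nlinarith

theorem card_16 (hW : ∀ w : W, w ^ 2 = 1) {k : ℕ} {x : MulAut W} (h1 : x ^ 5 ^ k = 1)
    {U : Subgroup W} (h : Iv x U) (h0 : U ⊓ fx x = ⊥) (hU : U ≠ ⊥) : 16 ≤ Nat.card U := by
  have : Fact (Nat.Prime 5) := ⟨by norm_num⟩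
  have m := modEq h1 h
  obtain ⟨j, hj⟩ := card_two hW U
  rw [h0, card_bot, hj] at m
  rw [hj]
  refine Nat.pow_le_pow_right two_pos ((two_pow_ge this.out le_rfl ?_ m).2.2 rfl)
  rintro rfl
  exact hU (card_eq_one.1 hj)

theorem le_fx_or (hW : ∀ w : W, w ^ 2 = 1) {k : ℕ} {x g : MulAut W} (h1 : x ^ 5 ^ k = 1)
    (hx : (fx x).index ≤ 16) (h : Commute g x) : cm x ≤ fx g ∨ cm x ⊓ fx g = ⊥ := by
  have : Fact (Nat.Prime 5) := ⟨by norm_num⟩
  have h0 := disj hW (odd_pp le_rfl k) h1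
  refine or_iff_not_imp_right.2 fun e => ?_
  have := card_16 hW h1 ((iv_cm rfl).inf (iv_fx h))
    (eq_bot_iff.2 ((inf_le_inf_right _ inf_le_left).trans h0.le)) e
  rw [← card_cm] at hx
  exact inf_eq_left.1 (eq_of_le_of_card_ge inf_le_left (hx.trans this))

theorem sup_top (hW : ∀ w : W, w ^ 2 = 1) {x : MulAut W} {n : ℕ} (hn : Odd n) (h1 : x ^ n = 1) :
    cm x ⊔ fx x = ⊤ := by
  have h := Grp.card_mul_card_le (cm x) (fx x)
  rw [disj hW hn h1, card_bot, one_mul, card_cm, index_mul_card] at h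
  exact eq_top_of_le_card _ h

theorem pow_five (hW : ∀ w : W, w ^ 2 = 1) {k : ℕ} {x : MulAut W} (h1 : x ^ 5 ^ k = 1)
    (hx : (fx x).index ≤ 16) {g : MulAut W} (h : Commute g x) (h2 : fx x ≤ fx g) {u : W}
    (hu : u ∈ cm x) (hu1 : u ≠ 1) (hg : g u = u) : g = 1 := by
  have : Fact (Nat.Prime 5) := ⟨by norm_num⟩
  have h3 := (le_fx_or hW h1 hx h).resolve_right fun e => hu1 (by
    have : u ∈ cm x ⊓ fx g := ⟨hu, mem_fx.2 hg⟩
    rwa [e] at this)
  exact eq_one_of_fx fun w => sup_le h3 h2 (by rw [sup_top hW (odd_pp le_rfl k) h1]; trivial)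

theorem collide {U : Subgroup W} (hU : Nat.card U ≤ 16) (f : Fin 5 × Fin 5 → W) (hf : ∀ i, f i ∈ U) :
    ∃ i j, i ≠ j ∧ f i = f j := by
  have := Fintype.ofFinite U
  obtain ⟨i, j, h1, h2⟩ := Fintype.exists_ne_map_eq_of_card_lt (fun i => (⟨f i, hf i⟩ : U))
    (by rw [← Nat.card_eq_fintype_card (α := U)]; simp only [Fintype.card_prod, Fintype.card_fin]; omega)
  exact ⟨i, j, h1, congrArg Subtype.val h2⟩

theorem mem_zp {Γ : Type*} [Group Γ] {y : Γ} {l : ℕ} (h : y ^ 5 ^ l = 1) {H : Subgroup Γ} {i j : Fin 5}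
    (hij : i ≠ j) (h2 : y ^ ((i : ℤ) - j) ∈ H) : y ∈ H := by
  have hc : IsCoprime ((i : ℤ) - j) ((5 ^ l : ℕ) : ℤ) := by
    rw [Nat.cast_pow]
    refine IsCoprime.pow_right ?_
    rw [Int.isCoprime_iff_gcd_eq_one]
    clear h2; revert i j; decide
  obtain ⟨s, t, e⟩ := hc
  have : y = (y ^ ((i : ℤ) - j)) ^ s := by
    conv_lhs => rw [← zpow_one y, ← e, zpow_add, mul_comm t, zpow_mul y _ t, zpow_natCast, h,
      one_zpow, mul_one, mul_comm s, zpow_mul]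
  rw [this]; exact zpow_mem h2 s

theorem ab2 (hW : ∀ w : W, w ^ 2 = 1) {k l : ℕ} {x y : MulAut W} (h1 : x ^ 5 ^ k = 1)
    (h2 : y ^ 5 ^ l = 1) (hx : (fx x).index ≤ 16) (hy : (fx y).index ≤ 16) (h : Commute y x)
    (hn : y ∉ zpowers x) : cm x ≤ fx y := by
  have : Fact (Nat.Prime 5) := ⟨by norm_num⟩
  have h0 := disj hW (odd_pp le_rfl k) h1
  refine (le_fx_or hW h1 hx h).elim id fun e => ?_
  by_cases hx1 : x = 1
  · rintro _ ⟨w, rfl⟩; rw [hx1]; simp [dl_apply, one_mem]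
  exfalso
  have c1 := card_16 hW h1 (iv_cm rfl) h0 (cm_ne_bot hx1)
  have e1 : cm x = cm y := by
    have t : (cm x).map (dl y) ≤ cm x := by rintro _ ⟨u, hu, rfl⟩; exact (iv_cm h.symm).dl hu
    have t2 : Nat.card ((cm x).map (dl y)) = Nat.card (cm x) := by
      rw [← relIndex_ker, ← card_inf_mul (cm x) (fx y), e, card_bot, one_mul]; rfl
    have t3 : cm x ≤ cm y := by
      rw [← eq_of_le_of_card_ge t t2.ge]; exact map_le_range _ _
    exact eq_of_le_of_card_ge t3 (by rw [card_cm y]; omega)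
  have e2 : fx x ≤ fx y := fun w hw => by
    have : dl y w ∈ cm x ⊓ fx x := ⟨e1 ▸ ⟨w, rfl⟩, (iv_fx h.symm).dl hw⟩
    rwa [h0] at this
  obtain ⟨⟨u, hu⟩, hu1⟩ := ne_bot_iff_exists_ne_one.1 (cm_ne_bot hx1)
  obtain ⟨⟨i, j⟩, ⟨i', j'⟩, t1, t2⟩ := collide (U := cm x) (by rwa [card_cm])
    (fun i => (x ^ (i.1 : ℕ) * y ^ (i.2 : ℕ)) u)
    fun i => (iv_cm rfl).pow _ _ ((iv_cm h.symm).pow _ _ hu)
  have t3 : x ^ ((i : ℤ) - i') * y ^ ((j : ℤ) - j') = 1 := by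
    have e3 : x ^ ((i : ℤ) - i') * y ^ ((j : ℤ) - j') =
        (x ^ (i' : ℕ) * y ^ (j' : ℕ))⁻¹ * (x ^ (i : ℕ) * y ^ (j : ℕ)) := by
      have c := (h.zpow_zpow (-(j' : ℤ)) ((i : ℤ) - i')).eq
      calc _ = y ^ (-(j' : ℤ)) * x ^ ((i : ℤ) - i') * y ^ (j : ℤ) := by rw [c]; group
        _ = _ := by simp only [← zpow_natCast]; group
    refine pow_five hW h1 hx (((Commute.refl x).zpow_left _).mul_left (h.zpow_left _))
      (fun w hw => fx_mul (fx_zpow hw _) (fx_zpow (e2 hw) _)) hu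
      (fun e => hu1 (Subtype.ext e)) ?_
    rw [e3, MulAut.mul_apply]
    dsimp only at t2
    rw [t2, MulAut.inv_apply_self]
  by_cases hj : j = j'
  · subst hj
    rw [sub_self, zpow_zero, mul_one] at t3
    exact hx1 (mem_bot.1 (mem_zp h1 (fun e => t1 (by rw [e])) (mem_bot.2 t3)))
  · exact hn (mem_zp h2 hj (by
      rw [eq_inv_of_mul_eq_one_right t3]; exact inv_mem (zpow_mem (mem_zpowers x) _)))

/-- A 5-element with `|[W,x]| ≤ 16` has order dividing 5. -/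
theorem order_five (hW : ∀ w : W, w ^ 2 = 1) {k : ℕ} {x : MulAut W} (h1 : x ^ 5 ^ k = 1)
    (hx : (fx x).index ≤ 16) : x ^ 5 = 1 := by
  by_cases hx1 : x = 1
  · rw [hx1, one_pow]
  obtain ⟨⟨u, hu⟩, hu1⟩ := ne_bot_iff_exists_ne_one.1 (cm_ne_bot hx1)
  obtain ⟨⟨i, j⟩, ⟨i', j'⟩, t1, t2⟩ := collide (U := cm x) (by rwa [card_cm])
    (fun i => (x ^ (i.1 : ℕ) * (x ^ 5) ^ (i.2 : ℕ)) u)
    fun i => (iv_cm rfl).pow _ _ (((iv_cm rfl).pow 5).pow _ _ hu)
  have t3 : x ^ ((i : ℤ) - i') * (x ^ 5) ^ ((j : ℤ) - j') = 1 := by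
    have e3 : x ^ ((i : ℤ) - i') * (x ^ 5) ^ ((j : ℤ) - j') =
        (x ^ (i' : ℕ) * (x ^ 5) ^ (j' : ℕ))⁻¹ * (x ^ (i : ℕ) * (x ^ 5) ^ (j : ℕ)) := by
      simp only [← zpow_natCast]; group
    refine pow_five hW h1 hx (((Commute.refl x).zpow_left _).mul_left
      (((Commute.refl x).pow_left 5).zpow_left _))
      (fun w hw => fx_mul (fx_zpow hw _) (fx_zpow (fx_pow hw 5) _)) hu
      (fun e => hu1 (Subtype.ext e)) ?_
    rw [e3, MulAut.mul_apply]
    dsimp only at t2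
    rw [t2, MulAut.inv_apply_self]
  have h5 : (x ^ 5) ^ 5 ^ k = 1 := by rw [← pow_mul, mul_comm, pow_mul, h1, one_pow]
  by_cases hi : i = i'
  · subst hi
    rw [sub_self, zpow_zero, one_mul] at t3
    exact mem_bot.1 (mem_zp h5 (fun e => t1 (by rw [e])) (mem_bot.2 t3))
  · have : x ∈ zpowers (x ^ 5) := mem_zp h1 hi (by
      rw [eq_inv_of_mul_eq_one_left t3]; exact inv_mem (zpow_mem (mem_zpowers _) _))
    obtain ⟨s, hs⟩ := this
    have e : ∀ m : ℕ, x = (x ^ 5 ^ m) ^ (s ^ m) := fun m => by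
      induction m with
      | zero => simp
      | succ m ih =>
        dsimp only at hs
        conv_lhs => rw [ih, ← hs]
        simp only [← zpow_natCast, ← zpow_mul]
        congr 1; push_cast; ring
    exact absurd (by rw [e k, h1, one_zpow]) hx1

theorem ab3 (hW : ∀ w : W, w ^ 2 = 1) {k l m : ℕ} {x y z : MulAut W} (h1 : x ^ 5 ^ k = 1)
    (h2 : y ^ 5 ^ l = 1) (h3 : z ^ 5 ^ m = 1) (hx : (fx x).index ≤ 16) (hy : (fx y).index ≤ 16)
    (hz : (fx z).index ≤ 16) (h : Commute y x) (h' : Commute z x)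
    (hn : y ∉ zpowers x) (hn' : z ∉ zpowers x) (hg : x ∈ zpowers y ⊔ zpowers z) : x = 1 := by
  have : Fact (Nat.Prime 5) := ⟨by norm_num⟩
  by_contra hx1
  refine cm_ne_bot hx1 (eq_bot_iff.2 fun u hu => ?_)
  rw [← disj hW (odd_pp le_rfl k) h1]
  refine ⟨hu, mem_fx.2 ?_⟩
  have : zpowers y ⊔ zpowers z ≤ MulAction.stabilizer (MulAut W) u :=
    sup_le (zpowers_le.2 (mem_fx.1 (ab2 hW h1 h2 hx hy h hn hu)))
      (zpowers_le.2 (mem_fx.1 (ab2 hW h1 h3 hx hz h' hn' hu)))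
  exact this hg

theorem index_conj (g x : MulAut W) : (fx (g * x * g⁻¹)).index = (fx x).index := by
  have : fx (g * x * g⁻¹) = (fx x).map g.toMonoidHom := by
    ext w
    rw [mem_map_equiv, mem_fx, mem_fx, MulAut.mul_apply, MulAut.mul_apply]
    exact (MulEquiv.eq_symm_apply g).symm
  rw [this]; exact index_map_equiv _ g

end Cfsg.Agent.QT.Xf
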